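import Cfsg.Agent.Lib.Helper58.UPair.Defs

/-!
# Project UPair (S5984), package [ODD]
-/

set_option autoImplicit false
open scoped MatrixGroups Matrix

namespace Cfsg.Agent.Lib.Helper34.UPair

open Cfsg.Agent.Lib.Helper58.UPair

universe u

/-- [ODD] -/
theorem pkgOdd : PkgOdd.{u} := by
  intro F _ n m D x r z hD hr hz h01 h10
  obtain ⟨k, rfl⟩ := hr
  have key : ∀ k : ℕ, (D 0).map (Matrix.toLin'
      ((x ^ (2 * k + 1) : GL (Fin n) F) : Matrix (Fin n) (Fin n) F)) = D 1 := by
    intro k
    induction k with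
    | zero => simpa using h01
    | succ k ih =>
      have : x ^ (2 * (k + 1) + 1) = x ^ (2 * k + 1) * x * x := by
        rw [mul_assoc, ← pow_two, ← pow_add]
        congr 1
      rw [this, Units.val_mul, Units.val_mul, Matrix.toLin'_mul, Submodule.map_comp, h01,
        Matrix.toLin'_mul, Submodule.map_comp, h10, ih]
  have h1 := key k
  rw [hz] at h1
  have hle : D 1 ≤ D 0 := by
    rw [← h1]
    rintro _ ⟨v, hv, rfl⟩
    rw [Matrix.toLin'_apply, Matrix.smul_mulVec, Matrix.one_mulVec]
    exact (D 0).smul_mem z hv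
  have hdis : Disjoint (D 1) (D 0) := by
    have := hD.indep 1
    refine this.mono_right ?_
    exact le_iSup₂_of_le 0 (by decide) le_rfl
  have hbot : D 1 = ⊥ := by
    rw [eq_bot_iff]; exact hdis le_rfl hle
  have := hD.finrank_eq 1
  rw [hbot, finrank_bot] at this
  exact absurd this.symm (Nat.pos_iff_ne_zero.mp hD.pos)

end Cfsg.Agent.Lib.Helper34.UPair
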